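import Mathlib
import Cfsg.Agent.Lib.Helper36.Sti.Defs
import Cfsg.Agent.Lib.Helper58.DCoset

/-!
# STI (S2311 + S2328, helper36): package [DC]
-/

set_option autoImplicit false

namespace Cfsg.Agent.Lib.Helper61.Sti

open Cfsg.Agent.Lib.Helper36.Sti

universe u v

/-- [DC] -/
theorem pkgDc : PkgDc.{u, v} := by
  intro G _ _ PJ PK ι S n h1 h2
  classical
  obtain ⟨r, hr⟩ : ∃ r : G → ι, ∀ g : G, r g ∈ S ∧ ∃ h ∈ PJ, ∃ k ∈ PK, g = h * n (r g) * k :=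
    ⟨fun g => Classical.choose (h1 g), fun g => Classical.choose_spec (h1 g)⟩
  have hU : ∀ (g : G) (w : ι), w ∈ S → ∀ h ∈ PJ, ∀ k ∈ PK, g = h * n w * k → r g = w := by
    intro g w hw h hh k hk hg
    obtain ⟨hrS, h', hh', k', hk', hg'⟩ := hr g
    refine (h2 w hw (r g) hrS ⟨h'⁻¹ * h, PJ.mul_mem (PJ.inv_mem hh') hh, k * k'⁻¹,
      PK.mul_mem hk (PK.inv_mem hk'), ?_⟩).symm
    have e1 : ∀ m : G, g = h' * m * k' → m = h'⁻¹ * g * k'⁻¹ := by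
      intro m hm
      rw [hm]
      group
    rw [e1 _ hg', hg]
    group
  have ha : ∀ h ∈ PJ, ∀ k ∈ PK, ∀ x, r (h * x * k) = r x := by
    intro h hh k hk x
    obtain ⟨hrS, h', hh', k', hk', hx⟩ := hr x
    apply hU (h * x * k) (r x) hrS (h * h') (PJ.mul_mem hh hh') (k' * k) (PK.mul_mem hk' hk)
    have e2 : h * x * k = h * (h' * n (r x) * k') * k := by rw [← hx]
    rw [e2]
    group
  have hb : ∀ x y, r x = r y → ∃ h ∈ PJ, ∃ k ∈ PK, y = h * x * k := by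
    intro x y hxy
    obtain ⟨-, h₁, hh₁, k₁, hk₁, hx⟩ := hr x
    obtain ⟨-, h₂, hh₂, k₂, hk₂, hy⟩ := hr y
    rw [← hxy] at hy
    refine ⟨h₂ * h₁⁻¹, PJ.mul_mem hh₂ (PJ.inv_mem hh₁), k₁⁻¹ * k₂,
      PK.mul_mem (PK.inv_mem hk₁) hk₂, ?_⟩
    have e3 : ∀ m : G, x = h₁ * m * k₁ → m = h₁⁻¹ * x * k₁⁻¹ := by
      intro m hm
      rw [hm]
      group
    rw [hy, e3 _ hx]
    group
  rw [Cfsg.Agent.Lib.Helper58.DCoset.dc_count PJ PK r ha hb]
  have hrange : Set.range r = (S : Set ι) := by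
    ext w
    constructor
    · rintro ⟨g, rfl⟩
      exact (hr g).1
    · intro hw
      exact ⟨n w, hU (n w) w hw 1 PJ.one_mem 1 PK.one_mem (by group)⟩
  rw [hrange, Nat.card_coe_set_eq, Set.ncard_coe_finset]

end Cfsg.Agent.Lib.Helper61.Sti
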