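import Mathlib
import Cfsg.Agent.Lib.Helper36.Sti.Defs

/-!
# STI (S2311 + S2328, helper36): package [SUM]
-/

set_option autoImplicit false

namespace Cfsg.Agent.Lib.Helper61.Sti

open Cfsg.Agent.Lib.Helper36.Sti

universe v

/-- The alternating sum over the subsets of `R` contained in `A ⊆ R`. -/
theorem alt_sub {R A : Finset ℕ} (hA : A ⊆ R) :
    ∑ J ∈ R.powerset, (if J ⊆ A then (-1 : ℂ) ^ J.card else 0) = if A = ∅ then 1 else 0 := by
  rw [← Finset.sum_filter]
  have h1 : R.powerset.filter (fun J => J ⊆ A) = A.powerset := by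
    ext J
    simp only [Finset.mem_filter, Finset.mem_powerset]
    exact ⟨fun h => h.2, fun h => ⟨h.trans hA, h⟩⟩
  rw [h1]
  have h2 := Finset.sum_powerset_neg_one_pow_card (x := A)
  have h3 : (∑ J ∈ A.powerset, (-1 : ℂ) ^ J.card) =
      ((∑ m ∈ A.powerset, (-1 : ℤ) ^ m.card : ℤ) : ℂ) := by
    push_cast
    rfl
  rw [h3, h2]
  split_ifs <;> simp

/-- [SUM] -/
theorem pkgSum : PkgSum.{v} := by
  intro ι W R ascL ascR w0 hw0 hL hR huniq hR0 hL0
  classical
  have key : ∀ J ∈ R.powerset, ∀ K ∈ R.powerset,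
      (-1 : ℂ) ^ J.card * (-1 : ℂ) ^ K.card *
        (((W.filter (fun w => J ⊆ ascL w ∧ K ⊆ ascR w)).card : ℕ) : ℂ) =
      ∑ w ∈ W, (if J ⊆ ascL w then (-1 : ℂ) ^ J.card else 0) *
        (if K ⊆ ascR w then (-1 : ℂ) ^ K.card else 0) := by
    intro J _ K _
    rw [Finset.natCast_card_filter, Finset.mul_sum]
    apply Finset.sum_congr rfl
    intro w _
    by_cases h1 : J ⊆ ascL w <;> by_cases h2 : K ⊆ ascR w <;> simp [h1, h2]
  rw [Finset.sum_congr rfl (fun J hJ => Finset.sum_congr rfl (fun K hK => key J hJ K hK))]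
  calc ∑ J ∈ R.powerset, ∑ K ∈ R.powerset, ∑ w ∈ W,
        (if J ⊆ ascL w then (-1 : ℂ) ^ J.card else 0) *
          (if K ⊆ ascR w then (-1 : ℂ) ^ K.card else 0)
      = ∑ J ∈ R.powerset, ∑ w ∈ W, ∑ K ∈ R.powerset,
        (if J ⊆ ascL w then (-1 : ℂ) ^ J.card else 0) *
          (if K ⊆ ascR w then (-1 : ℂ) ^ K.card else 0) := by
        apply Finset.sum_congr rfl
        intro J _
        exact Finset.sum_comm
    _ = ∑ w ∈ W, ∑ J ∈ R.powerset, ∑ K ∈ R.powerset,
        (if J ⊆ ascL w then (-1 : ℂ) ^ J.card else 0) *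
          (if K ⊆ ascR w then (-1 : ℂ) ^ K.card else 0) := Finset.sum_comm
    _ = ∑ w ∈ W, (∑ J ∈ R.powerset, (if J ⊆ ascL w then (-1 : ℂ) ^ J.card else 0)) *
          (∑ K ∈ R.powerset, (if K ⊆ ascR w then (-1 : ℂ) ^ K.card else 0)) := by
        apply Finset.sum_congr rfl
        intro w _
        rw [Finset.sum_mul_sum]
    _ = ∑ w ∈ W, (if ascL w = ∅ then (1 : ℂ) else 0) * (if ascR w = ∅ then (1 : ℂ) else 0) := by
        apply Finset.sum_congr rfl
        intro w hw
        rw [alt_sub (hL w hw), alt_sub (hR w hw)]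
    _ = 1 := by
        rw [Finset.sum_eq_single w0]
        · rw [if_pos hL0, if_pos hR0, mul_one]
        · intro w hw hne
          rw [if_neg (fun h => hne (huniq w hw h)), mul_zero]
        · intro h
          exact absurd hw0 h

end Cfsg.Agent.Lib.Helper61.Sti
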